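-- Team project APQ = S4150 (helper69), package [NSOLV] (helper54): a `3`-transitive group of
-- odd degree at least `5` is not solvable.
import Mathlib
import Cfsg.Agent.Lib.Helper69.APQ.Defs
import Cfsg.Agent.S0699

set_option autoImplicit false

namespace Cfsg.Agent.Lib.Helper54.APQ

open Cfsg.Agent.Lib.Helper69.APQ Equiv MulAction

universe u

/-- [NSOLV]. -/
theorem pkgNSolv : PkgNSolv.{u} := by
  classical
  intro β _ _ G hodd h5 h3 hsolv
  have hcard : (3 : ℕ) ≤ Nat.card β := by rw [Nat.card_eq_fintype_card]; omega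
  obtain ⟨a, b, c, hab, hac, hbc⟩ : ∃ a b c : β, a ≠ b ∧ a ≠ c ∧ b ≠ c :=
    Fintype.two_lt_card_iff.1 (by omega)
  have h2G : IsMultiplyPretransitive G β 2 :=
    isMultiplyPretransitive_of_le (n := 3) (by norm_num) hcard
  have htopbot : (⊤ : Subgroup G) ≠ ⊥ := by
    intro htop
    obtain ⟨g, hg, -⟩ := is_two_pretransitive_iff.1 h2G hab (Ne.symm hab)
    have hg1 : g = 1 := by
      have : g ∈ (⊤ : Subgroup G) := Subgroup.mem_top g
      rw [htop] at this
      exact Subgroup.mem_bot.1 this
    rw [hg1, one_smul] at hg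
    exact hab hg
  have hex : ∃ n : ℕ, derivedSeries G n = ⊥ := hsolv.solvable
  have hn : derivedSeries G (Nat.find hex) = ⊥ := Nat.find_spec hex
  have hnpos : Nat.find hex ≠ 0 := by
    intro h0
    rw [h0, derivedSeries_zero] at hn
    exact htopbot hn
  obtain ⟨k, hk⟩ := Nat.exists_eq_succ_of_ne_zero hnpos
  have hNbot : derivedSeries G k ≠ ⊥ := fun h => Nat.find_min hex (by omega : k < Nat.find hex) h
  have hNcomm : ⁅derivedSeries G k, derivedSeries G k⁆ = ⊥ := by
    rw [← derivedSeries_succ, ← Nat.succ_eq_add_one, ← hk]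
    exact hn
  have : (derivedSeries G k).Normal := derivedSeries_normal G k
  have h3N : IsMultiplyPretransitive (derivedSeries G k) β 3 :=
    Cfsg.Agent.S0699.result G hodd h5 h3 (derivedSeries G k) hNbot
  have h2N : IsMultiplyPretransitive (derivedSeries G k) β 2 :=
    isMultiplyPretransitive_of_le (n := 3) (by norm_num) hcard
  obtain ⟨x, hxa, hxb⟩ := is_two_pretransitive_iff.1 h2N hab hac
  obtain ⟨y, hya, -⟩ := is_two_pretransitive_iff.1 h2N hab (Ne.symm hab)
  have hxy : x * y = y * x := by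
    have hle := Subgroup.commutator_eq_bot_iff_le_centralizer.1 hNcomm
    have h1 := hle x.2
    rw [Subgroup.mem_centralizer_iff] at h1
    have h2 := h1 (y : G) y.2
    exact Subtype.ext h2.symm
  have hfin : x • b = b := by
    rw [← hya, ← mul_smul, hxy, mul_smul, hxa]
  rw [hxb] at hfin
  exact hbc hfin.symm

example : PkgNSolv.{0} := pkgNSolv
example : PkgNSolv.{3} := pkgNSolv

end Cfsg.Agent.Lib.Helper54.APQ
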